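import Mathlib
import Cfsg.Agent.Lib.SmallOrd.InvolTools

/-!
# A `2`-local obstruction at a prime `p` exactly dividing the order

`P = ⟨x⟩` is a Sylow `p`-subgroup of order `p`, `N = N_G(P)`, `C = C_G(x)`.  `T` is a subgroup of `N` of
order `8`, a Sylow `2`-subgroup of `N` but not of `G`.  If `T` meets `C` in a subgroup of order at least
`4` and the centralizer of every involution of `C` centralized by `T` lies in `N`, we get a contradiction:
an element `s` of `N_G(T) \ T` moves an involution of `C ∩ Z(T)` to another one, so `x^s ∈ N`.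
-/

set_option autoImplicit false
set_option linter.unusedSectionVars false

namespace Cfsg.Agent.Lib.SmallOrd.LocalTwo

open Subgroup Cfsg.Agent.Lib.SmallCen.SmallOrder Cfsg.Agent.Lib.SmallOrd
open Cfsg.Agent.Lib.SmallOrd.ClassSign Cfsg.Agent.Lib.SmallOrd.InvolTools

variable {G : Type*} [Group G] [Finite G]

theorem conj_inv_two (a g : G) (h : a * a = 1) : (g * a * g⁻¹) * (g * a * g⁻¹) = 1 := by
  calc g * a * g⁻¹ * (g * a * g⁻¹) = g * (a * a) * g⁻¹ := by group
    _ = 1 := by rw [h]; group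

theorem conj_ne_one' (a g : G) (h : a ≠ 1) : g * a * g⁻¹ ≠ 1 := by
  intro h1
  apply h
  have : a = g⁻¹ * (g * a * g⁻¹) * g := by group
  rw [this, h1]
  group

/-- A `2`-group normalizing `⟨x⟩` centralizes an involution of `C(x)`. -/
theorem exists_involution_comm' {p : ℕ} [Fact p.Prime] (P : Sylow p G)
    (hP : Nat.card (P : Subgroup G) = p)
    (x : G) (hxP : x ∈ (P : Subgroup G)) (hx : orderOf x = p)
    (hC2 : 2 ∣ Nat.card (centralizer ({x} : Set G)))
    (S : Subgroup G) (hSN : S ≤ normalizer ((P : Subgroup G) : Set G)) (hS2 : IsPGroup 2 S) :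
    ∃ u, u ∈ centralizer ({x} : Set G) ∧ u * u = 1 ∧ u ≠ 1 ∧ ∀ s ∈ S, s * u = u * s := by
  classical
  haveI : Fintype G := Fintype.ofFinite G
  haveI : Fact (Nat.Prime 2) := ⟨Nat.prime_two⟩
  set C := centralizer ({x} : Set G) with hC
  let Cf : Finset G := Finset.univ.filter (· ∈ C)
  have hCf : Cf.card = Nat.card C := by
    rw [Nat.card_eq_fintype_card, Fintype.card_subtype]
  have hodd := odd_card_involutions Cf (fun c hc => by
      simp only [Cf, Finset.mem_filter, Finset.mem_univ, true_and] at hc ⊢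
      exact inv_mem hc)
    (by simp [Cf, C.one_mem]) (by rw [hCf]; exact (even_iff_two_dvd.2 hC2))
  obtain ⟨u, hu, hSu⟩ := exists_comm_of_odd S hS2 (Cf.filter fun c => c * c = 1 ∧ c ≠ 1) (by
      intro s hs a ha
      simp only [Cf, Finset.mem_filter, Finset.mem_univ, true_and] at ha ⊢
      obtain ⟨ha1, ha2, ha3⟩ := ha
      exact ⟨conj_mem_centralizer' P hP x hxP hx s a (hSN hs) ha1, conj_inv_two a s ha2,
        conj_ne_one' a s ha3⟩) (by
      intro h2
      have := hodd.not_two_dvd_nat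
      exact this h2)
  simp only [Cf, Finset.mem_filter, Finset.mem_univ, true_and] at hu
  exact ⟨u, hu.1, hu.2.1, hu.2.2, hSu⟩

/-- The `2`-local obstruction. -/
theorem false_of_eight {p : ℕ} [Fact p.Prime] (P : Sylow p G) (hP : Nat.card (P : Subgroup G) = p)
    (x : G) (hxP : x ∈ (P : Subgroup G)) (hx : orderOf x = p) (hG16 : 16 ∣ Nat.card G)
    (hN8 : ¬ 16 ∣ Nat.card (normalizer ((P : Subgroup G) : Set G)))
    (hN : 8 ∣ Nat.card (normalizer ((P : Subgroup G) : Set G)))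
    (hT4 : ∀ T : Subgroup G, T ≤ normalizer ((P : Subgroup G) : Set G) → Nat.card T = 8 →
      4 ≤ Nat.card (T ⊓ centralizer ({x} : Set G) : Subgroup G))
    (hA : ∀ q ∈ centralizer ({x} : Set G), q * q = 1 → q ≠ 1 → ∀ T : Subgroup G, Nat.card T = 8 →
      T ≤ normalizer ((P : Subgroup G) : Set G) → T ≤ centralizer ({q} : Set G) →
      centralizer ({q} : Set G) ≤ normalizer ((P : Subgroup G) : Set G)) : False := by
  classical
  haveI : Fintype G := Fintype.ofFinite G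
  haveI : Fact (Nat.Prime 2) := ⟨Nat.prime_two⟩
  set N := normalizer ((P : Subgroup G) : Set G) with hNdef
  set C := centralizer ({x} : Set G) with hC
  obtain ⟨T₀', hT₀'⟩ := Sylow.exists_subgroup_card_pow_prime (G := N) 2 (n := 3) (by simpa using hN)
  have hT₀c : Nat.card (T₀'.map N.subtype) = 8 := by
    rw [Subgroup.card_map_of_injective N.subtype_injective, hT₀']
    norm_num
  have hT₀N : T₀'.map N.subtype ≤ N := Subgroup.map_subtype_le _
  have hC2 : 2 ∣ Nat.card C := by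
    have h1 := hT4 _ hT₀N hT₀c
    have h2 : Nat.card (T₀'.map N.subtype ⊓ C : Subgroup G) ∣ Nat.card C :=
      Subgroup.card_dvd_of_le inf_le_right
    have h3 : Nat.card (T₀'.map N.subtype ⊓ C : Subgroup G) ∣ 8 := by
      rw [← hT₀c]
      exact Subgroup.card_dvd_of_le inf_le_left
    have key : ∀ d ∈ (8 : ℕ).divisors, 4 ≤ d → 2 ∣ d := by decide +kernel
    exact (key _ (Nat.mem_divisors.2 ⟨h3, by norm_num⟩) h1).trans h2
  obtain ⟨u, huC, hu2, hu1, hTu⟩ := exists_involution_comm' P hP x hxP hx hC2 (T₀'.map N.subtype) hT₀N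
    (IsPGroup.of_card (n := 3) (by rw [hT₀c]; norm_num))
  have huN : u ∈ N := centralizer_le_normalizer' P hP x hxP hx huC
  have hord : orderOf u = 2 := orderOf_eq_prime (by rw [pow_two]; exact hu2) hu1
  have hMle : centralizer ({u} : Set G) ≤ N := hA u huC hu2 hu1 _ hT₀c hT₀N (by
    intro t ht
    rw [Subgroup.mem_centralizer_singleton_iff]
    exact hTu t ht)
  -- `T₀` contains `u`
  obtain ⟨m, hm⟩ := hN
  have hm2 : ¬ 2 ∣ m := by
    intro h2
    apply hN8
    rw [hm]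
    exact (by norm_num : 16 = 8 * 2) ▸ Nat.mul_dvd_mul_left 8 h2
  have hm0 : m ≠ 0 := by
    rintro rfl
    exact hm2 (dvd_zero 2)
  have hfac : (Nat.card N).factorization 2 = 3 := by
    rw [hm, show (8 : ℕ) = 2 ^ 3 by norm_num, Nat.factorization_mul (pow_ne_zero _ (by norm_num)) hm0,
      Finsupp.add_apply, Nat.Prime.factorization_pow Nat.prime_two, Finsupp.single_eq_same,
      Nat.factorization_eq_zero_of_not_dvd hm2, add_zero]
  let R : Sylow 2 ↥N := Sylow.ofCard T₀' (by rw [hT₀', hfac])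
  have hRcoe : (R : Subgroup ↥N) = T₀' := Sylow.coe_ofCard _ _
  have huR : (⟨u, huN⟩ : ↥N) ∈ (R : Subgroup ↥N) := by
    apply mem_of_mem_normalizer R _ _ (by rw [Subgroup.orderOf_mk, hord])
    apply Subgroup.centralizer_le_normalizer
    rw [Subgroup.mem_centralizer_iff]
    intro y hy
    apply Subtype.ext
    rw [hRcoe] at hy
    exact hTu y.1 ⟨y, hy, rfl⟩
  rw [hRcoe] at huR
  let T : Subgroup G := T₀'.map N.subtype
  have hTN : T ≤ N := hT₀N
  have hTc : Nat.card T = 8 := hT₀c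
  have huT : u ∈ T := ⟨⟨u, huN⟩, huR, rfl⟩
  have hT2 : IsPGroup 2 T := IsPGroup.of_card (n := 3) (by rw [hTc]; norm_num)
  -- `T` normalized by a bigger `2`-group
  obtain ⟨K, hKc, hTK⟩ := Sylow.exists_subgroup_card_pow_succ (p := 2) (n := 3) (H := T)
    (by simpa using hG16) (by rw [hTc]; norm_num)
  have hKc' : Nat.card K = 16 := by rw [hKc]; norm_num
  have hidx : T.relIndex K = 2 := by
    have h1 := Cfsg.Agent.Lib.Perm.SylowIn.card_mul_relIndex hTK
    rw [hTc, hKc'] at h1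
    omega
  have hlt : T < K := by
    refine lt_of_le_of_ne hTK ?_
    intro he
    rw [← he, hTc] at hKc'
    omega
  obtain ⟨s, hsK, hsT⟩ := SetLike.exists_of_lt hlt
  have hK2 : IsPGroup 2 K := IsPGroup.of_card (n := 4) (by rw [hKc']; norm_num)
  have hKnorm : K ≤ normalizer (T : Set G) :=
    le_normalizer_of_index_prime Nat.prime_two hTK hK2 hidx
  have hsn : ∀ t ∈ T, s * t * s⁻¹ ∈ T := fun t ht => (mem_normalizer_iff.1 (hKnorm hsK) t).1 ht
  have hsn' : ∀ t ∈ T, s⁻¹ * t * s ∈ T := by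
    intro t ht
    have := (mem_normalizer_iff.1 (inv_mem (hKnorm hsK)) t).1 ht
    simpa using this
  have hsN : s ∉ N := by
    intro hs
    have hle : T ≤ N ⊓ K := le_inf hTN hTK
    have h1 : Nat.card (N ⊓ K : Subgroup G) ∣ Nat.card N := Subgroup.card_dvd_of_le inf_le_left
    have h2 : Nat.card (N ⊓ K : Subgroup G) ∣ 16 := by
      rw [← hKc']
      exact Subgroup.card_dvd_of_le inf_le_right
    have h3 : ¬ 16 ∣ Nat.card (N ⊓ K : Subgroup G) := fun h' => hN8 (h'.trans h1)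
    have h4 : Nat.card (N ⊓ K : Subgroup G) ≤ 8 := by
      have key : ∀ d ∈ (16 : ℕ).divisors, ¬ 16 ∣ d → d ≤ 8 := by decide +kernel
      exact key _ (Nat.mem_divisors.2 ⟨h2, by norm_num⟩) h3
    have h5 : T = N ⊓ K := Subgroup.eq_of_le_of_card_ge hle (by rw [hTc]; exact h4)
    apply hsT
    rw [h5]
    exact ⟨hs, hsK⟩
  have hne : s * u * s⁻¹ ≠ u := by
    intro he
    apply hsN
    apply hMle
    rw [Subgroup.mem_centralizer_singleton_iff]
    calc s * u = s * u * s⁻¹ * s := by group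
      _ = u * s := by rw [he]
  have hTu' : ∀ t ∈ T, t * u = u * t := hTu
  have hu'1 : s * u * s⁻¹ ≠ 1 := conj_ne_one' u s hu1
  have hTu'' : ∀ t ∈ T, t * (s * u * s⁻¹) = (s * u * s⁻¹) * t := by
    intro t ht
    have h1 := hTu' _ (hsn' t ht)
    calc t * (s * u * s⁻¹) = s * (s⁻¹ * t * s * u) * s⁻¹ := by group
      _ = s * (u * (s⁻¹ * t * s)) * s⁻¹ := by rw [h1]
      _ = (s * u * s⁻¹) * t := by group
  have hTcomm : ∀ a ∈ T, ∀ b ∈ T, a * b = b * a := by
    intro a ha b hb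
    have h1 := comm_of_card_eight hTc (⟨u, huT⟩ : ↥T) (⟨s * u * s⁻¹, hsn u huT⟩ : ↥T) (by
        rw [Subgroup.mem_center_iff]
        intro d
        exact Subtype.ext (hTu' d.1 d.2)) (by
        rw [Subgroup.mem_center_iff]
        intro d
        exact Subtype.ext (hTu'' d.1 d.2))
      (fun h0 => hu1 (congrArg Subtype.val h0)) (fun h0 => hu'1 (congrArg Subtype.val h0))
      (fun h0 => hne (congrArg Subtype.val h0).symm) ⟨a, ha⟩ ⟨b, hb⟩
    exact congrArg Subtype.val h1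
  -- the intersection of `T ∩ C` and its conjugate
  set T₁ : Subgroup G := T ⊓ C with hT₁
  have hT₁T : T₁ ≤ T := inf_le_left
  have hT₁C : T₁ ≤ C := inf_le_right
  have hT₁c : 4 ≤ Nat.card T₁ := hT4 T hTN hTc
  let T₂ : Subgroup G := T₁.map (MulAut.conj s).toMonoidHom
  have hT₂c : Nat.card T₂ = Nat.card T₁ := by
    rw [Subgroup.card_map_of_injective (MulAut.conj s).injective]
  have hT₂T : T₂ ≤ T := by
    rintro _ ⟨a, ha, rfl⟩
    exact hsn a (hT₁T ha)
  have h1T := Cfsg.Agent.Lib.Perm.SylowIn.card_mul_relIndex hT₁T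
  rw [hTc] at h1T
  have hrelT : T₁.relIndex T ≤ 2 := by
    by_contra hcon
    have : 4 * 3 ≤ Nat.card T₁ * T₁.relIndex T := Nat.mul_le_mul hT₁c (by omega)
    omega
  have hrel2 : T₁.relIndex T₂ ≤ 2 := by
    have h1 : T₁.relIndex T₂ ≤ T₁.relIndex T :=
      Subgroup.relIndex_le_of_le_right hT₂T (by
        intro h0
        rw [h0] at h1T
        omega)
    omega
  have hinf : 2 ≤ Nat.card (T₁ ⊓ T₂ : Subgroup G) := by
    have h1 := Cfsg.Agent.Lib.Perm.SylowIn.card_mul_relIndex (inf_le_right : T₁ ⊓ T₂ ≤ T₂)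
    rw [Subgroup.inf_relIndex_right, hT₂c] at h1
    by_contra hcon
    have : Nat.card (T₁ ⊓ T₂ : Subgroup G) * T₁.relIndex T₂ ≤ 1 * 2 := Nat.mul_le_mul (by omega) hrel2
    omega
  haveI : Nontrivial (T₁ ⊓ T₂ : Subgroup G) := Finite.one_lt_card_iff_nontrivial.1 (by omega)
  obtain ⟨⟨q, hq⟩, hq1⟩ := exists_ne (1 : (T₁ ⊓ T₂ : Subgroup G))
  have hq1' : q ≠ 1 := fun h0 => hq1 (Subtype.ext h0)
  obtain ⟨q₀, hq₀, hq₀1, hq₀2⟩ : ∃ q₀ ∈ (T₁ ⊓ T₂ : Subgroup G), q₀ ≠ 1 ∧ q₀ * q₀ = 1 := by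
    have h8 : q ^ 8 = 1 := by
      have h5 : (⟨q, hT₁T hq.1⟩ : ↥T) ^ Nat.card T = 1 := pow_card_eq_one'
      rw [hTc] at h5
      simpa using congrArg Subtype.val h5
    by_cases h1 : q * q = 1
    · exact ⟨q, hq, hq1', h1⟩
    · by_cases h2 : (q * q) * (q * q) = 1
      · exact ⟨q * q, (T₁ ⊓ T₂).mul_mem hq hq, h1, h2⟩
      · refine ⟨(q * q) * (q * q), (T₁ ⊓ T₂).mul_mem ((T₁ ⊓ T₂).mul_mem hq hq) ((T₁ ⊓ T₂).mul_mem hq hq),
          h2, ?_⟩
        rw [← h8]
        simp only [pow_succ, pow_zero, one_mul, mul_assoc]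
  obtain ⟨t₀, ht₀, ht₀q⟩ := hq₀.2
  have ht₀q' : s * t₀ * s⁻¹ = q₀ := ht₀q
  have ht₀1 : t₀ ≠ 1 := by
    rintro rfl
    apply hq₀1
    rw [← ht₀q']
    group
  have ht₀2 : t₀ * t₀ = 1 := by
    have h1 : t₀ = s⁻¹ * q₀ * s := by rw [← ht₀q']; group
    rw [h1]
    calc s⁻¹ * q₀ * s * (s⁻¹ * q₀ * s) = s⁻¹ * (q₀ * q₀) * s := by group
      _ = 1 := by rw [hq₀2]; group
  have hTcent : ∀ a ∈ T₁, T ≤ centralizer ({a} : Set G) := by
    intro a ha t ht
    rw [Subgroup.mem_centralizer_singleton_iff]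
    exact hTcomm t ht a (hT₁T ha)
  have hCq : centralizer ({q₀} : Set G) ≤ N :=
    hA q₀ (hT₁C hq₀.1) hq₀2 hq₀1 T hTc hTN (hTcent q₀ hq₀.1)
  have hxt : x * t₀ = t₀ * x := by
    have := hT₁C ht₀
    rw [hC, Subgroup.mem_centralizer_singleton_iff] at this
    exact this.symm
  have hsv : s * x * s⁻¹ ∈ N := by
    apply hCq
    rw [Subgroup.mem_centralizer_singleton_iff, ← ht₀q']
    calc s * x * s⁻¹ * (s * t₀ * s⁻¹) = s * (x * t₀) * s⁻¹ := by group
      _ = s * (t₀ * x) * s⁻¹ := by rw [hxt]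
      _ = s * t₀ * s⁻¹ * (s * x * s⁻¹) := by group
  have h1 : s⁻¹ ∈ N := mem_normalizer_of_conj_mem P hP x hxP hx s⁻¹ (by rw [inv_inv]; exact hsv)
  have h2 := N.inv_mem h1
  rw [inv_inv] at h2
  exact hsN h2

end Cfsg.Agent.Lib.SmallOrd.LocalTwo
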